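import Mathlib
import Cfsg.Agent.Lib.Helper74.O720.Defs
import Cfsg.Agent.Lib.Helper50.O720.A40
import Cfsg.Agent.Lib.Helper20.O720.P9
import Cfsg.Agent.Lib.Helper1.O720.T1
import Cfsg.Agent.Lib.Helper22.O720.T0
import Cfsg.Agent.Lib.Helper63.O720.T0d

set_option autoImplicit false

namespace Cfsg.Agent.Lib.Helper74.O720

variable {G : Type*} [Group G] [Finite G] [IsSimpleGroup G]


/-- an element of `Nz P ⊓ Cz X` lies in `P` -/
theorem C1_aux (h : Nat.card G = 720) (h40 : Nat.card (Sylow 3 G) = 40) (X : Subgroup G) (hX : Nat.card X = 3)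
    (P1 : Sylow 3 G) (h1 : X ≤ (P1 : Subgroup G)) (n : G) (hn : n ∈ Nz (P1 : Subgroup G)) (hc : n ∈ Cz X) :
    n ∈ (P1 : Subgroup G) := by
  by_contra hnP
  have hall : ∀ u ∈ X, u = 1 := by
    intro u hu
    have e1 := A40 h h40 P1 n hn hnP u (h1 hu)
    have e2 : u * n = n * u := (Subgroup.mem_centralizer_iff.1 hc) u hu
    have e3 : n * u * n⁻¹ = u := by rw [← e2]; group
    have e4 : u = u⁻¹ := e3.symm.trans e1
    have e5 : u ^ 3 = 1 := by
      have := pow_card_eq_one' (G := X) (x := ⟨u, hu⟩)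
      rw [hX] at this
      simpa using congrArg Subtype.val this
    have e6 : u * u = 1 := by
      nth_rewrite 2 [e4]
      group
    calc u = u ^ 3 * (u * u)⁻¹ := by group
      _ = 1 := by rw [e5, e6]; group
  have : X = ⊥ := (Subgroup.eq_bot_iff_forall X).2 hall
  rw [this] at hX
  simp at hX

theorem C1 (h : Nat.card G = 720) (h40 : Nat.card (Sylow 3 G) = 40) (X : Subgroup G) (hX : Nat.card X = 3)
    (P1 P2 : Sylow 3 G) (h12 : P1 ≠ P2) (h1 : X ≤ (P1 : Subgroup G)) (h2 : X ≤ (P2 : Subgroup G)) :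
    Nat.card (Cz X) = 36 := by
  have : Fact (Nat.Prime 3) := ⟨by norm_num⟩
  have hP : ∀ P : Sylow 3 G, X ≤ (P : Subgroup G) → (P : Subgroup G) ≤ Cz X := by
    intro P hXP y hy
    rw [Subgroup.mem_centralizer_iff]
    intro x hx
    exact comm_P h P x (hXP hx) y hy
  have hP1 := hP P1 h1
  have hP2 := hP P2 h2
  -- bounds on the order
  have hdvd : Nat.card (Cz X) ∣ 720 := h ▸ Subgroup.card_subgroup_dvd_card (Cz X)
  have h5 := no15 h X hX
  have hXb : X ≠ ⊥ := by
    intro e; rw [e] at hX; simp at hX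
  have hXt : X ≠ ⊤ := by
    intro e; rw [e, Subgroup.card_top, h] at hX; omega
  have hidx := index_ge h (Nz X) (Nz_ne_top X hXb hXt)
  have hNcard : Nat.card (Nz X) * (Nz X).index = 720 := h ▸ Subgroup.card_mul_index (Nz X)
  have hle : Nat.card (Cz X) ≤ Nat.card (Nz X) :=
    Subgroup.card_le_of_le (Subgroup.centralizer_le_normalizer _)
  have h90 : Nat.card (Cz X) ≤ 90 := by nlinarith
  -- Sylow count in `Cz X`
  set Q1 : Sylow 3 (Cz X) := P1.subtype hP1 with hQ1
  set Q2 : Sylow 3 (Cz X) := P2.subtype hP2 with hQ2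
  have hQne : Q1 ≠ Q2 := fun e => h12 (Sylow.subtype_injective e)
  have hmod : Nat.card (Sylow 3 (Cz X)) ≡ 1 [MOD 3] := card_sylow_modEq_one 3 (Cz X)
  have hne1 : Nat.card (Sylow 3 (Cz X)) ≠ 1 := by
    intro e
    have := (Nat.card_eq_one_iff_unique.1 e).1
    exact hQne (Subsingleton.elim _ _)
  have hnorm : Subgroup.normalizer ((Q1 : Subgroup (Cz X)) : Set (Cz X)) = (Q1 : Subgroup (Cz X)) := by
    apply le_antisymm _ Subgroup.le_normalizer
    intro n hn
    have hn' : (n : G) ∈ Nz (P1 : Subgroup G) := by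
      rw [Subgroup.mem_normalizer_iff] at hn ⊢
      intro x
      constructor
      · intro hx
        have := (hn ⟨x, hP1 hx⟩).1 (by rw [hQ1, Sylow.coe_subtype, Subgroup.mem_subgroupOf]; exact hx)
        rw [hQ1, Sylow.coe_subtype, Subgroup.mem_subgroupOf] at this
        simpa using this
      · intro hx
        have hxH : x ∈ Cz X := by
          have e : x = (n : G)⁻¹ * ((n : G) * x * (n : G)⁻¹) * (n : G) := by group
          rw [e]
          exact mul_mem (mul_mem (inv_mem n.2) (hP1 hx)) n.2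
        have := (hn ⟨x, hxH⟩).2 (by rw [hQ1, Sylow.coe_subtype, Subgroup.mem_subgroupOf]; simpa using hx)
        rw [hQ1, Sylow.coe_subtype, Subgroup.mem_subgroupOf] at this
        exact this
    rw [hQ1, Sylow.coe_subtype, Subgroup.mem_subgroupOf]
    exact C1_aux h h40 X hX P1 h1 n hn' n.2
  have hcount : Nat.card (Sylow 3 (Cz X)) = (Q1 : Subgroup (Cz X)).index := by
    rw [Sylow.card_eq_index_normalizer Q1]
    exact congrArg Subgroup.index hnorm
  have hQcard : Nat.card (Q1 : Subgroup (Cz X)) = 9 := by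
    rw [hQ1, Sylow.coe_subtype, Nat.card_congr (Subgroup.subgroupOfEquivOfLe hP1).toEquiv]
    exact card_P h P1
  have hmul : 9 * Nat.card (Sylow 3 (Cz X)) = Nat.card (Cz X) := by
    rw [hcount, ← hQcard]
    exact Subgroup.card_mul_index _
  generalize Nat.card (Sylow 3 (Cz X)) = n at *
  generalize Nat.card (Cz X) = m at *
  subst hmul
  have hn10 : n ≤ 10 := by omega
  unfold Nat.ModEq at hmod
  interval_cases n <;> first | rfl | omega | (exfalso; revert hdvd; decide) | (exfalso; revert h5; decide)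

end Cfsg.Agent.Lib.Helper74.O720
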