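import Mathlib
import Cfsg.Agent.Lib.Helper74.O720.Defs
import Cfsg.Agent.Lib.Helper50.O720.A40
import Cfsg.Agent.Lib.Helper20.O720.P9
import Cfsg.Agent.Lib.Helper53.O720.E2

set_option autoImplicit false

namespace Cfsg.Agent.Lib.Helper74.O720

variable {G : Type*} [Group G] [Finite G] [IsSimpleGroup G]


/-- no non-identity element of `V` commutes with an element `x ∉ D` of order 3 of `Nz D` -/
theorem F2_key (h : Nat.card G = 720) (h40 : Nat.card (Sylow 3 G) = 40) (D : Subgroup G) (hD : Nat.card D = 3)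
    (V : Subgroup G) (hV4 : Nat.card V = 4) (hVC : V ≤ Cz D) (x : G) (hx3 : orderOf x = 3)
    (hxN : x ∈ Nz D) (hxD : x ∉ D) (v : G) (hv : v ∈ V) (hvx : v * x = x * v) : v = 1 := by
  have : Fact (Nat.Prime 3) := ⟨by norm_num⟩
  have hD3 : IsPGroup 3 D := IsPGroup.of_card (n := 1) (by rw [hD]; norm_num)
  have hz3 : IsPGroup 3 (Subgroup.zpowers x) :=
    IsPGroup.of_card (n := 1) (by rw [Nat.card_zpowers, hx3]; norm_num)
  have hT3 : IsPGroup 3 (D ⊔ Subgroup.zpowers x : Subgroup G) :=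
    IsPGroup.to_sup_of_normal_left' hD3 hz3 (Subgroup.zpowers_le.2 hxN)
  obtain ⟨P1, hP1⟩ := hT3.exists_le_sylow
  have hc9 := card_P h P1
  have hTd : Nat.card (D ⊔ Subgroup.zpowers x : Subgroup G) ∣ 9 := hc9 ▸ Subgroup.card_dvd_of_le hP1
  have hDd : 3 ∣ Nat.card (D ⊔ Subgroup.zpowers x : Subgroup G) := hD ▸ Subgroup.card_dvd_of_le le_sup_left
  have hxT : x ∈ (D ⊔ Subgroup.zpowers x : Subgroup G) :=
    (le_sup_right : Subgroup.zpowers x ≤ _) (Subgroup.mem_zpowers x)
  have hT9 : Nat.card (D ⊔ Subgroup.zpowers x : Subgroup G) = 9 := by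
    have hne3 : Nat.card (D ⊔ Subgroup.zpowers x : Subgroup G) ≠ 3 := by
      intro e
      have := Subgroup.eq_of_le_of_card_ge (le_sup_left : D ≤ D ⊔ Subgroup.zpowers x) (by rw [e, hD])
      exact hxD (this ▸ hxT)
    have hle : Nat.card (D ⊔ Subgroup.zpowers x : Subgroup G) ≤ 9 := Nat.le_of_dvd (by norm_num) hTd
    generalize Nat.card (D ⊔ Subgroup.zpowers x : Subgroup G) = n at *
    interval_cases n <;> omega
  have hTP : (D ⊔ Subgroup.zpowers x : Subgroup G) = (P1 : Subgroup G) :=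
    Subgroup.eq_of_le_of_card_ge hP1 (by rw [hT9, hc9])
  have hcen : (P1 : Subgroup G) ≤ Subgroup.centralizer {v} := by
    rw [← hTP]
    apply sup_le
    · intro d hd
      rw [Subgroup.mem_centralizer_iff]
      intro w hw
      rw [Set.mem_singleton_iff] at hw
      subst hw
      exact ((Subgroup.mem_centralizer_iff.1 (hVC hv)) d hd).symm
    · rw [Subgroup.zpowers_le, Subgroup.mem_centralizer_iff]
      intro w hw
      rw [Set.mem_singleton_iff] at hw
      subst hw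
      exact hvx
  have hvC : v ∈ Cz (P1 : Subgroup G) := by
    rw [Subgroup.mem_centralizer_iff]
    intro y hy
    exact ((Subgroup.mem_centralizer_iff.1 (hcen hy)) v rfl).symm
  have hvN : v ∈ Nz (P1 : Subgroup G) := Subgroup.centralizer_le_normalizer _ hvC
  by_cases hvP : v ∈ (P1 : Subgroup G)
  · have hbot : V ⊓ (P1 : Subgroup G) = ⊥ :=
      (Subgroup.disjoint_of_coprime_natCard (by rw [hV4, hc9]; decide)).eq_bot
    have : v ∈ V ⊓ (P1 : Subgroup G) := ⟨hv, hvP⟩
    rw [hbot] at this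
    exact Subgroup.mem_bot.1 this
  · exfalso
    have e1 := A40 h h40 P1 v hvN hvP x (hP1 hxT)
    have e2 : v * x * v⁻¹ = x := by rw [hvx]; group
    have e3 : x = x⁻¹ := e2.symm.trans e1
    have e4 : x ^ 2 = 1 := by
      rw [pow_two]
      nth_rewrite 2 [e3]
      group
    have := orderOf_dvd_of_pow_eq_one e4
    rw [hx3] at this
    omega

theorem F2 (h : Nat.card G = 720) (h40 : Nat.card (Sylow 3 G) = 40) (D : Subgroup G) (hD : Nat.card D = 3)
    (hM : Nat.card (Nz D) = 72) (V : Subgroup G) (hV4 : Nat.card V = 4) (hVC : V ≤ Cz D) (hVN : Nz D ≤ Nz V)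
    (g : G) (hg : g ∉ Nz D) (h12 : Nat.card (Ig (Nz D) g) = 12) : V ≤ cj g (Nz D) := by
  have : Fact (Nat.Prime 3) := ⟨by norm_num⟩
  have : Fact (Nat.Prime 2) := ⟨by norm_num⟩
  have hIN : Ig (Nz D) g ≤ Nz D := inf_le_left
  have hIc : Ig (Nz D) g ≤ cj g (Nz D) := inf_le_right
  -- an element of order 3
  obtain ⟨x', hx'⟩ := exists_prime_orderOf_dvd_card' (G := Ig (Nz D) g) 3 (by rw [h12]; norm_num)
  set x : G := (x' : G) with hxdef
  have hx3 : orderOf x = 3 := by rw [hxdef, Subgroup.orderOf_coe, hx']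
  have hxI : x ∈ Ig (Nz D) g := x'.2
  have hxD : x ∉ D := by
    intro hxD
    have e : Subgroup.zpowers x = D :=
      Subgroup.eq_of_le_of_card_ge (Subgroup.zpowers_le.2 hxD) (by rw [Nat.card_zpowers, hx3, hD])
    apply E1 h h40 D hD hM g hg
    have h3 : Subgroup.zpowers x ≤ cj g (Nz D) := (Subgroup.zpowers_le.2 hxI).trans hIc
    rwa [e] at h3
  have key := F2_key h h40 D hD V hV4 hVC x hx3 (hIN hxI) hxD
  -- a Sylow 2-subgroup of `I`
  obtain ⟨K, hK⟩ := Sylow.exists_subgroup_card_pow_prime (G := Ig (Nz D) g) 2 (n := 2)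
    (by rw [h12]; norm_num)
  set S : Subgroup G := K.map (Ig (Nz D) g).subtype with hS
  have hS4 : Nat.card S = 4 := by
    rw [hS, Subgroup.card_map_of_injective (Subgroup.subtype_injective _), hK]; norm_num
  have hSI : S ≤ Ig (Nz D) g := Subgroup.map_subtype_le K
  have hV2 : IsPGroup 2 V := IsPGroup.of_card (n := 2) (by rw [hV4]; norm_num)
  have hS2 : IsPGroup 2 S := IsPGroup.of_card (n := 2) (by rw [hS4]; norm_num)
  have hVS2 : IsPGroup 2 (V ⊔ S : Subgroup G) :=
    IsPGroup.to_sup_of_normal_left' hV2 hS2 ((hSI.trans hIN).trans hVN)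
  have hVSN : V ⊔ S ≤ Nz D :=
    sup_le (hVC.trans (Subgroup.centralizer_le_normalizer _)) (hSI.trans hIN)
  have hVS8 : Nat.card (V ⊔ S : Subgroup G) ≤ 8 := by
    obtain ⟨k, hk⟩ := IsPGroup.iff_card.1 hVS2
    have hd : 2 ^ k ∣ 72 := by
      rw [← hk, ← hM]; exact Subgroup.card_dvd_of_le hVSN
    rw [hk]
    by_contra hlt
    have hk4 : 4 ≤ k := by
      by_contra hk4
      have : k ≤ 3 := by omega
      have := Nat.pow_le_pow_right (n := 2) (by norm_num) this
      omega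
    have : 2 ^ 4 ∣ 72 := (pow_dvd_pow 2 hk4).trans hd
    omega
  have hW : V ⊓ Ig (Nz D) g ≠ ⊥ := by
    intro hbot
    have hdis : Disjoint V S := by
      rw [disjoint_iff, eq_bot_iff, ← hbot]
      exact inf_le_inf_left V hSI
    have hinj := Subgroup.mul_injective_of_disjoint hdis
    have hinj' : Function.Injective (fun q : V × S => (⟨(q.1 : G) * (q.2 : G),
        mul_mem ((le_sup_left : V ≤ V ⊔ S) q.1.2) ((le_sup_right : S ≤ V ⊔ S) q.2.2)⟩ :
          (V ⊔ S : Subgroup G))) := by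
      intro a b hab
      exact hinj (congrArg Subtype.val hab)
    have := Nat.card_le_card_of_injective _ hinj'
    rw [Nat.card_prod, hV4, hS4] at this
    omega
  have hWd : Nat.card (V ⊓ Ig (Nz D) g : Subgroup G) ∣ 4 := hV4 ▸ Subgroup.card_dvd_of_le inf_le_left
  have hW1 : Nat.card (V ⊓ Ig (Nz D) g : Subgroup G) ≠ 1 := by
    intro e
    exact hW ((Subgroup.card_eq_one).1 e)
  have hcases : Nat.card (V ⊓ Ig (Nz D) g : Subgroup G) = 2 ∨ Nat.card (V ⊓ Ig (Nz D) g : Subgroup G) = 4 := by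
    have hle : Nat.card (V ⊓ Ig (Nz D) g : Subgroup G) ≤ 4 := Nat.le_of_dvd (by norm_num) hWd
    generalize Nat.card (V ⊓ Ig (Nz D) g : Subgroup G) = n at *
    interval_cases n <;> omega
  rcases hcases with h2 | h4
  · exfalso
    obtain ⟨v, hv, hv1⟩ : ∃ v ∈ V ⊓ Ig (Nz D) g, v ≠ 1 := by
      by_contra hcon
      apply hW
      rw [Subgroup.eq_bot_iff_forall]
      intro y hy
      by_contra hy1
      exact hcon ⟨y, hy, hy1⟩
    have hw : x * v * x⁻¹ ∈ V ⊓ Ig (Nz D) g := by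
      refine ⟨?_, (Ig (Nz D) g).mul_mem ((Ig (Nz D) g).mul_mem hxI hv.2) ((Ig (Nz D) g).inv_mem hxI)⟩
      exact (Subgroup.mem_normalizer_iff.1 (hVN (hIN hxI)) v).1 hv.1
    have hw1 : x * v * x⁻¹ ≠ 1 := by
      intro e
      apply hv1
      have : v = x⁻¹ * (x * v * x⁻¹) * x := by group
      rw [this, e]; group
    obtain ⟨b, -, hb⟩ := (Nat.card_eq_two_iff' (1 : (V ⊓ Ig (Nz D) g : Subgroup G))).1 h2
    have e1 := hb ⟨v, hv⟩ (by intro e; exact hv1 (congrArg Subtype.val e))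
    have e2 := hb ⟨x * v * x⁻¹, hw⟩ (by intro e; exact hw1 (congrArg Subtype.val e))
    have e3 : x * v * x⁻¹ = v := congrArg Subtype.val (e2.trans e1.symm)
    apply hv1
    apply key v hv.1
    calc v * x = (x * v * x⁻¹) * x := by rw [e3]
      _ = x * v := by group
  · have e : V ⊓ Ig (Nz D) g = V := Subgroup.eq_of_le_of_card_ge inf_le_left (by rw [h4, hV4])
    rw [← e]
    exact inf_le_right.trans hIc

end Cfsg.Agent.Lib.Helper74.O720
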